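import Cfsg.Agent.H25.UGDefs
import Cfsg.Agent.H77.CharAux

/-! Project UG, piece DEGA: character degrees modulo a large prime power. -/

set_option autoImplicit false

namespace Cfsg.Agent.H75.UgDega

open Cfsg Cfsg.Agent.H25.UG Finset
open scoped ComplexConjugate

universe u

theorem num {ι : Type*} [Fintype ι] (S : ι → ℤ) (N : ℤ) (hN : 50 ≤ N) (h1 : ∀ a, |S a| * 2 ≤ N)
    (h2 : ∑ a, (N * |S a| - S a ^ 2) ≤ 6 * N) : |∑ a, S a| ≤ 6 := by
  refine (abs_sum_le_sum_abs _ _).trans ?_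
  set σ := ∑ a, |S a| with hσ
  have h3 : ∀ a, |S a| ≤ σ := fun a =>
    single_le_sum (f := fun a => |S a|) (fun a _ => abs_nonneg _) (mem_univ a)
  have h4 : N * σ ≤ 2 * ∑ a, (N * |S a| - S a ^ 2) := by
    rw [hσ, mul_sum, mul_sum]
    refine sum_le_sum fun a _ => ?_
    rw [← sq_abs]
    nlinarith [abs_nonneg (S a), h1 a]
  have h5 : (N - σ) * σ ≤ ∑ a, (N * |S a| - S a ^ 2) := by
    conv_lhs => enter [2]; rw [hσ]
    rw [mul_sum]
    refine sum_le_sum fun a _ => ?_
    rw [← sq_abs]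
    nlinarith [abs_nonneg (S a), h3 a]
  have h6 : σ ≤ 12 := by nlinarith
  by_contra h7
  push Not at h7
  have h8 := h5.trans h2
  interval_cases σ <;> omega

theorem exists_near (m N : ℤ) (hN : 0 < N) : ∃ k, |m - k * N| * 2 ≤ N := by
  have h1 := Int.emod_nonneg m hN.ne'
  have h2 := Int.emod_lt_of_pos m hN
  have h3 := Int.emod_add_mul_ediv m N
  by_cases h : m % N * 2 ≤ N
  · exact ⟨m / N, by rw [show m - m / N * N = m % N by linarith, abs_of_nonneg h1]; exact h⟩
  · exact ⟨m / N + 1, by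
      rw [show m - (m / N + 1) * N = m % N - N by linarith, abs_of_neg (by linarith)]; linarith⟩

theorem fib {B ι : Type*} [Fintype B] [Fintype ι] [DecidableEq ι] (r : B → ι) (n : B → ℤ) (N : ℕ)
    (hN : 50 ≤ N) (hr : ∀ a, #{b | r b = a} = N)
    (h : N * ∑ b, n b ^ 2 - ∑ a, (∑ b with r b = a, n b) ^ 2 ≤ 6 * N) :
    ∃ δ : ℤ, |δ| ≤ 6 ∧ (N : ℤ) ∣ ∑ b, n b - δ := by
  choose k hk using fun a => exists_near (∑ b with r b = a, n b) N (by omega)
  refine ⟨∑ a, (∑ b with r b = a, n b - k a * N), num _ N (by omega) hk (le_trans ?_ h), ?_⟩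
  · rw [← sum_fiberwise univ r fun b => n b ^ 2, mul_sum, ← sum_sub_distrib]
    refine sum_le_sum fun a _ => ?_
    have h1 : |∑ b with r b = a, n b - k a * N| ≤ ∑ b with r b = a, (n b - k a) ^ 2 := by
      rw [show ∑ b with r b = a, n b - k a * N = ∑ b with r b = a, (n b - k a) by
        rw [sum_sub_distrib, sum_const, hr, nsmul_eq_mul, mul_comm]]
      refine (abs_sum_le_sum_abs _ _).trans (sum_le_sum fun b _ => ?_)
      rw [← sq_abs]
      exact Int.le_self_sq _
    have h2 : ∑ b with r b = a, (n b - k a) ^ 2 =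
        ∑ b with r b = a, n b ^ 2 - 2 * k a * ∑ b with r b = a, n b + N * k a ^ 2 := by
      rw [mul_sum, ← sum_sub_distrib, ← hr a, ← nsmul_eq_mul, ← sum_const, ← sum_add_distrib]
      exact sum_congr rfl fun b _ => by ring
    rw [h2] at h1
    have h3 := mul_le_mul_of_nonneg_left h1 (Int.natCast_nonneg N)
    nlinarith
  · rw [sum_sub_distrib, sum_fiberwise, sub_sub_cancel, ← sum_mul]
    exact dvd_mul_left _ _

theorem norm_sum {A : Type*} [Group A] [Fintype A] [Fintype (A →* ℂˣ)] (n : (A →* ℂˣ) → ℤ)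
    (f : A → ℂ) (hf : ∀ a, f a = ∑ l, (n l : ℂ) * l a) :
    ∑ a, Complex.normSq (f a) = Nat.card A * ((∑ l, n l ^ 2 : ℤ) : ℝ) := by
  classical
  apply Complex.ofReal_injective
  push_cast
  simp only [← Complex.mul_conj, hf, map_sum, map_mul, map_intCast, sum_mul_sum]
  rw [sum_comm, mul_sum]
  refine sum_congr rfl fun l _ => ?_
  rw [sum_comm]
  have : ∀ l' : A →* ℂˣ, ∑ a, (n l : ℂ) * l a * (n l' * conj (l' a : ℂ)) =
      if l = l' then (n l : ℂ) * n l' * Nat.card A else 0 := fun l' => by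
    rw [← mul_zero ((n l : ℂ) * n l'), ← mul_ite, ← H77.sum_monoidHom_mul_conj, mul_sum]
    exact sum_congr rfl fun a _ => by ring
  simp only [this, sum_ite_eq, mem_univ, if_true]
  ring

theorem abel {A : Type u} [CommGroup A] [Fintype A] (H : Subgroup A) [DecidablePred (· ∈ H)]
    (hN : 50 ≤ H.index) {χ : A → ℂ} (hχ : IsCharacter A χ)
    (h : ∑ a with a ∉ H, Complex.normSq (χ a) ≤ 6 * Nat.card A) :
    ∃ (d δ : ℤ), χ 1 = d ∧ |δ| ≤ 6 ∧ (H.index : ℤ) ∣ d - δ := by
  classical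
  have := Fintype.ofFinite (A →* ℂˣ)
  have := Fintype.ofFinite (H →* ℂˣ)
  obtain ⟨s, hs⟩ := H11.exists_multiset_monoidHom_of_comm mul_comm hχ
  let n : (A →* ℂˣ) → ℤ := fun l => s.count l
  have h1 : ∀ a, χ a = ∑ l, (n l : ℂ) * l a := fun a => by
    rw [hs, sum_multiset_map_count, sum_subset (subset_univ _) fun l _ hl => by
      rw [Multiset.count_eq_zero_of_notMem (by simpa using hl), zero_smul]]
    simp [n]
  let r := MonoidHom.domRestrictHom H ℂˣ
  have h2 : ∀ a : H, χ a = ∑ l, ((∑ b with r b = l, n b : ℤ) : ℂ) * l a := fun a => by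
    rw [h1, ← sum_fiberwise univ r]
    refine sum_congr rfl fun l _ => ?_
    push_cast
    rw [sum_mul]
    refine sum_congr rfl fun b hb => ?_
    rw [← (mem_filter.1 hb).2]; rfl
  have h3 := norm_sum n χ h1
  have h4 := norm_sum _ (fun a : H => χ a) h2
  have h5 : ∑ a, Complex.normSq (χ a) =
      ∑ a : H, Complex.normSq (χ a) + ∑ a with a ∉ H, Complex.normSq (χ a) := by
    rw [← sum_filter_add_sum_filter_not univ (· ∈ H)]
    congr 1
    exact sum_subtype _ (by simp) _
  have hr : ∀ l, #{b | r b = l} = H.index := fun l => by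
    rw [MonoidHom.card_fiber_eq_of_mem_range r (MonoidHom.domRestrict_surjective ℂ H l)
      (one_mem r.range), Subgroup.index, ← CommGroup.card_domRestrictHom_ker ℂ H,
      Nat.card_eq_fintype_card, ← Fintype.card_subtype]
    exact Fintype.card_congr (Equiv.refl _)
  obtain ⟨δ, h6, h7⟩ := fib r n H.index hN hr (by
    have h8 : (0 : ℝ) < Nat.card H := by exact_mod_cast Nat.card_pos
    have h9 : (Nat.card A : ℝ) = Nat.card H * H.index := by exact_mod_cast H.card_mul_index.symm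
    rw [h3, h4, h9] at h5
    rw [h9] at h
    have : (H.index : ℝ) * ((∑ l, n l ^ 2 : ℤ) : ℝ) -
        ((∑ l, (∑ b with r b = l, n b) ^ 2 : ℤ) : ℝ) ≤ 6 * H.index :=
      le_of_mul_le_mul_left (by linarith) h8
    exact_mod_cast this)
  exact ⟨_, δ, by rw [h1]; simp, h6, h7⟩

theorem count {G : Type*} [Group G] [Fintype G] [DecidableEq G] (F : G → ℝ) (h0 : ∀ g, 0 ≤ F g)
    (hF : ∀ g h, F (h * g * h⁻¹) = F g) (D : Finset G) (M : ℕ)
    (hM : ∀ c ∈ D, #{g | g * c * g⁻¹ ∈ D} ≤ M) :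
    Fintype.card G * ∑ c ∈ D, F c ≤ M * ∑ g, F g := by
  have h1 : ∀ g, ∑ c ∈ D, F c = ∑ y, if g * y * g⁻¹ ∈ D then F y else 0 := fun g => by
    rw [← sum_filter]
    exact (sum_equiv (MulAut.conj g).toEquiv (by simp) fun y _ => (hF y g).symm).symm
  calc _ = ∑ g : G, ∑ c ∈ D, F c := by simp
    _ = ∑ y, ∑ g, if g * y * g⁻¹ ∈ D then F y else 0 := (sum_congr rfl fun g _ => h1 g).trans sum_comm
    _ ≤ ∑ y, M * F y := sum_le_sum fun y _ => by
      rw [← sum_filter, sum_const, nsmul_eq_mul]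
      refine mul_le_mul_of_nonneg_right (Nat.cast_le.2 ?_) (h0 y)
      rcases (filter (fun g => g * y * g⁻¹ ∈ D) univ).eq_empty_or_nonempty with e | ⟨g0, e⟩
      · rw [e]; exact Nat.zero_le _
      refine le_trans (card_le_card_of_injOn (· * g0⁻¹) (fun g hg => ?_)
        fun _ _ _ _ h => mul_right_cancel h) (hM _ (mem_filter.1 e).2)
      simp only [coe_filter, mem_univ, true_and, Set.mem_ofPred_eq] at hg ⊢
      convert hg using 1
      group
    _ = _ := by rw [mul_sum]

theorem dega : DegaStmt.{u} := by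
  intro G _ _ l s hl hG hs h50 χ hχ
  classical
  have : Fact l.Prime := ⟨hl⟩
  have := Fintype.ofFinite G
  obtain ⟨Q, hQ⟩ := Sylow.exists_subgroup_card_pow_prime l hs
  have pQ : IsPGroup l Q := IsPGroup.of_card hQ
  have : Nontrivial Q := Finite.one_lt_card_iff_nontrivial.1 (by omega)
  have := pQ.center_nontrivial
  obtain ⟨x', hx'⟩ := exists_prime_orderOf_dvd_card' (G := Subgroup.center Q) l (by
    obtain ⟨k, hk0, hk⟩ := (pQ.to_subgroup (Subgroup.center Q)).nontrivial_iff_card.1 this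
    rw [hk]; exact dvd_pow_self l hk0.ne')
  set x : G := ((x' : Q) : G) with hxd
  have hx : orderOf x = l := by rw [hxd, Subgroup.orderOf_coe, Subgroup.orderOf_coe, hx']
  let C := Subgroup.centralizer ({x} : Set G)
  have hC : ∀ {c}, c ∈ C ↔ Commute c x := Subgroup.mem_centralizer_singleton_iff
  have QC : Q ≤ C := fun y hy =>
    hC.2 (congrArg Subtype.val (Subgroup.mem_center_iff.1 x'.2 ⟨y, hy⟩))
  letI : CommGroup C := { (inferInstance : Group C) with
    mul_comm := fun a b => Subtype.ext (hG.ab x a b hx (hC.1 a.2) (hC.1 b.2)) }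
  let H : Subgroup C :=
    { carrier := {c | ¬ l ∣ orderOf c}
      one_mem' := by simpa using hl.ne_one
      mul_mem' := fun {a b} ha hb h =>
        (hl.dvd_mul.1 (h.trans (Commute.all a b).orderOf_mul_dvd_mul_orderOf)).elim ha hb
      inv_mem' := fun {a} ha => by simpa using ha }
  have h1 : l ^ s ∣ H.index := by
    refine (Nat.Coprime.pow_left s (hl.coprime_iff_not_dvd.2 fun h => ?_)).dvd_of_dvd_mul_left
      (by rw [H.card_mul_index, ← hQ]; exact Subgroup.card_dvd_of_le QC)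
    obtain ⟨y, hy⟩ := exists_prime_orderOf_dvd_card' l h
    exact y.2 (by rw [Subgroup.orderOf_coe, hy])
  let D : Finset G := {c | c ∈ C ∧ l ∣ orderOf c}
  have h2 : ∀ c ∈ D, orderOf (c ^ (orderOf c / l)) = l ∧ Commute x (c ^ (orderOf c / l)) :=
    fun c hc => ⟨orderOf_pow_orderOf_div (orderOf_pos c).ne' (mem_filter.1 hc).2.2,
      ((hC.1 (mem_filter.1 hc).2.1).pow_left _).symm⟩
  have h3 : ∀ c ∈ D, #{g | g * c * g⁻¹ ∈ D} ≤ Nat.card C * 6 := fun c hc => by
    refine (card_le_mul_card_image (f := fun g => g * x * g⁻¹) _ (Nat.card C) fun y hy => ?_).trans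
      (Nat.mul_le_mul_left _ (le_trans ?_ (hG.six x hx)))
    · obtain ⟨g0, -, rfl⟩ := mem_image.1 hy
      rw [← Fintype.card_coe, ← Nat.card_eq_fintype_card]
      refine Nat.card_le_card_of_injective (fun g => (⟨g0⁻¹ * g, hC.2 ?_⟩ : C)) fun a b h =>
        Subtype.ext (mul_left_cancel (congrArg Subtype.val h))
      have := (mem_filter.1 g.2).2
      calc g0⁻¹ * g * x = g0⁻¹ * (g * x * (g : G)⁻¹) * g := by group
        _ = x * (g0⁻¹ * g) := by rw [this]; group
    · rw [← Set.ncard_coe_finset]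
      refine Set.ncard_le_ncard (fun y hy => ?_) (Set.toFinite _)
      obtain ⟨g, hg, rfl⟩ := mem_image.1 hy
      refine ⟨?_, isConj_iff.2 ⟨g, rfl⟩⟩
      obtain ⟨e1, e2⟩ := h2 c hc
      obtain ⟨e3, e4⟩ := h2 _ (mem_filter.1 hg).2
      obtain ⟨k, hk⟩ := hG.cy _ x e1 hx e2.symm
      have e5 := hG.cy x _ hx e3 e4
      rw [show orderOf (g * c * g⁻¹) = orderOf c from (MulAut.conj g).orderOf_eq c, conj_pow] at e5
      have e6 := Subgroup.zpow_mem _ e5 k
      rw [conj_zpow] at e6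
      rwa [show (c ^ (orderOf c / l)) ^ k = x from hk] at e6
  have h4 := count (fun g => Complex.normSq (χ g)) (fun g => Complex.normSq_nonneg _)
    (fun g h => by rw [H11.isClassFunction_of_irr hχ g h]) D _ h3
  have h5 : ∑ g, Complex.normSq (χ g) = Fintype.card G := by
    apply Complex.ofReal_injective
    push_cast
    simp only [← Complex.mul_conj]
    rw [← H11.card_mul_classInner, H11.classInner_irr_self hχ, mul_one, Nat.card_eq_fintype_card]
  have h6 : (0 : ℝ) < Fintype.card G := by exact_mod_cast Fintype.card_pos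
  rw [h5, mul_comm _ (Fintype.card G : ℝ)] at h4
  obtain ⟨d, δ, e1, e2, e3⟩ := abel (A := C) H
    (h50.trans (Nat.le_of_dvd (Nat.pos_of_ne_zero H.index_ne_zero_of_finite) h1))
    (H11.isCharacter_restrict (H11.isCharacter_of_irr hχ) C) (by
      have h7 := le_of_mul_le_mul_left h4 h6
      push_cast at h7
      rw [mul_comm] at h7
      refine le_of_eq_of_le ?_ h7
      refine sum_bij (fun c _ => (c : G)) (fun c hc => ?_) (fun _ _ _ _ h => Subtype.ext h)
        (fun c hc => ?_) fun _ _ => rfl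
      · exact mem_filter.2 ⟨mem_univ _, c.2, by
          rw [Subgroup.orderOf_coe]; exact not_not.1 (mem_filter.1 hc).2⟩
      · exact ⟨⟨c, (mem_filter.1 hc).2.1⟩, mem_filter.2 ⟨mem_univ _, not_not.2 (by
          rw [← Subgroup.orderOf_coe]; exact (mem_filter.1 hc).2.2)⟩, rfl⟩)
  obtain ⟨m, hm⟩ := H11.exists_nat_degree (H11.isCharacter_of_irr hχ)
  have e4 : d = m := by exact_mod_cast e1.symm.trans hm
  refine ⟨δ, e2, (Int.natCast_dvd_natCast.2 h1).trans ?_⟩
  rwa [show charDegree χ = m by simp [charDegree, hm], ← e4]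

end Cfsg.Agent.H75.UgDega
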