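import Cfsg.Agent.H63.AnDefs2

/-! Project AN, piece S4E: the even normal forms. -/

set_option autoImplicit false
set_option linter.unusedSectionVars false

namespace Cfsg.Agent.H75.AnS

open Cfsg Cfsg.Agent.H63 Cfsg.Agent.H63.SL Subgroup Cfsg.Agent.H63.AN
open Cfsg.Agent.H7.AA (ev d2 Acts KA NA ev_mul ev_conj ev_one KA_ev sign_d2 nodup4)
open Cfsg.Agent.H78 (c3 altOn symOn)
open Equiv (swap Perm)
open Equiv.Perm (sign)

universe u

variable {G : Type u} [Group G] {α : Type} [Fintype α] [DecidableEq α]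

theorem em_CA (x : Fin 10 ↪ α) {a : Perm (Fin 10)} (h : a * zz = zz * a) (s : sign a = 1) :
    em x a ∈ CA (em x zz) :=
  mem_CA.2 ⟨by rw [Commute, SemiconjBy, ← map_mul, h, map_mul], by rw [sign_em, s]⟩

theorem em_PP (x : Fin 10 ↪ α) {a : Perm (Fin 10)} (h : ∀ i, a i = i ∨ a i = zz i)
    (s : sign a = 1) : em x a ∈ PP (em x zz) := by
  refine ⟨by rw [sign_em, s], fun e => ?_⟩
  by_cases k : ∃ i, x i = e
  · obtain ⟨i, rfl⟩ := k
    rw [em_apply, em_apply]
    exact (h i).imp (congrArg x) (congrArg x)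
  · push Not at k
    exact Or.inl (em_of_not x a k)

theorem em_sq (x : Fin 10 ↪ α) {a : Perm (Fin 10)} (h : a * a = 1) : em x a * em x a = 1 := by
  rw [← map_mul, h, map_one]

theorem out_conj (x : Fin 10 ↪ α) {a : Perm (Fin 10)} (h : a.support ⊆ zz.support) {c : Perm α}
    (hc : c ∈ symOn (em x zz).supportᶜ) : c * em x a * c⁻¹ = em x a := by
  rw [(H78.commute_of_mem_symOn disjoint_compl_left hc (H78.mem_symOn_iff_support.2 (by
    rw [support_em, support_em]; exact Finset.map_subset_map.2 h))).eq, mul_inv_cancel_right]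

theorem sym_ten (x : Fin 10 ↪ α) (h : Fintype.card α = 10) {σ : Perm α}
    (hσ : σ ∈ symOn (em x zz).supportᶜ) : σ = 1 ∨ σ = em x s0 := by
  have hx : Function.Surjective x :=
    ((Fintype.bijective_iff_injective_and_card x).2 ⟨x.injective, by simp [h]⟩).2
  have h1 : ∀ i, zz i ≠ i → σ (x i) = x i := fun i hi => hσ _ (by
    rw [Finset.mem_compl, not_not, Equiv.Perm.mem_support, em_apply]
    exact x.injective.ne hi)
  have h2 : ∀ i : Fin 10, zz i ≠ i ∨ i = 8 ∨ i = 9 := by decide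
  have h3 : ∀ i : Fin 10, zz i ≠ i → s0 i = i := by decide
  have h4 : ∀ j, zz j = j → σ (x j) = x 8 ∨ σ (x j) = x 9 := fun j hj => by
    obtain ⟨i, hi⟩ := hx (σ (x j))
    rcases h2 i with e | rfl | rfl
    · exact absurd (x.injective (σ.injective ((h1 i e).trans hi)) ▸ hj) e
    exacts [Or.inl hi.symm, Or.inr hi.symm]
  have h89 : σ (x 8) ≠ σ (x 9) := σ.injective.ne (x.injective.ne (by decide))
  rcases h4 8 (by decide) with e | e <;> rcases h4 9 (by decide) with e' | e'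
  · exact absurd (e.trans e'.symm) h89
  · left
    ext y
    obtain ⟨i, rfl⟩ := hx y
    rcases h2 i with k | rfl | rfl
    exacts [h1 i k, e, e']
  · right
    ext y
    obtain ⟨i, rfl⟩ := hx y
    rw [em_apply]
    rcases h2 i with k | rfl | rfl
    exacts [by rw [h1 i k, h3 i k], e, e']
  · exact absurd (e.trans e'.symm) h89

section

variable {ψ : alternatingGroup α →* G} {t g : G} {x : Fin 10 ↪ α} {φ φ' : Perm α → Perm α}

theorem act (W : TwG ψ t g (em x zz) (em x zz) φ φ') {a q : Perm α} (sa : sign a = 1)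
    (hq : q ∈ CA (em x zz)) (qq : q * q = 1) (s : sign (φ q) = 1) (e : φ' (φ q) = q) :
    ev ψ a * g⁻¹ * ev ψ q * (ev ψ a * g⁻¹)⁻¹ = ev ψ (a * φ q * a⁻¹) := by
  rw [ev_conj sa s, ← W.ex q hq qq s e]; group

theorem n0 (kp : KpStmt) (B : Bs ψ t) (W : TwG ψ t g (em x zz) (em x zz) φ φ')
    (T : Tw4 x φ φ' (TS ψ t)) {a : Perm α} (ha : a ∈ altOn (em x zz).supportᶜ) :
    N0 ψ t (ev ψ a * g⁻¹) x := by
  have sz : sign (em x zz) = 1 := by rw [sign_em]; decide
  have z2 := em_sq x (a := zz) (by decide)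
  have key : ∀ w : Perm (Fin 10), (∀ i, w i = i ∨ w i = zz i) → sign w = 1 → w * w = 1 →
      w * zz = zz * w → w.support ⊆ zz.support →
      ev ψ a * g⁻¹ * ev ψ (em x w) * (ev ψ a * g⁻¹)⁻¹ = ev ψ (em x w) := fun w h1 h2 h3 h4 h5 => by
    have h6 := em_PP x h1 h2
    rw [act W ha.2 (em_CA x h4 h2) (em_sq x h3) (by rw [T.id _ h6]; exact h6.1)
      (W.tw.1.inv _ ((kp α B.nine).2 _ z2 sz _ h6) (em_sq x h3)), T.id _ h6, out_conj x h5 ha.1]
  refine ⟨?_, key ww (by decide) (by decide) (by decide) (by decide) (by decide),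
    key vv (by decide) (by decide) (by decide) (by decide) (by decide)⟩
  have e : g⁻¹ * t * g = t * ev ψ (em x zz) := by
    have : g * (t * ev ψ (em x zz)) * g⁻¹ = t := by
      calc _ = g * t * g⁻¹ * (g * ev ψ (em x zz) * g⁻¹) := by group
        _ = t := by rw [W.gt, W.gp, mul_assoc, ← ev_mul sz sz, z2, ev_one, mul_one]
    calc _ = g⁻¹ * (g * (t * ev ψ (em x zz)) * g⁻¹) * g := by rw [this]
      _ = _ := by group
  calc _ = ev ψ a * (g⁻¹ * t * g) * (ev ψ a)⁻¹ := by group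
    _ = t * (ev ψ a * ev ψ (em x zz) * (ev ψ a)⁻¹) := by
      rw [e, ← mul_assoc, ← KA_ev B.tK]; group
    _ = _ := by rw [← ev_conj ha.2 sz, out_conj x subset_rfl ha.1]

theorem gs (W : TwG ψ t g (em x zz) (em x zz) φ φ') {a : Perm α}
    (ha : a ∈ altOn (em x zz).supportᶜ) {ε : Bool}
    (h : φ (em x s12) = em x (s12 * pw ε ww * pw true vv) * 1) (e : φ' (φ (em x s12)) = em x s12) :
    ev ψ a * g⁻¹ * ev ψ (em x s12) * (ev ψ a * g⁻¹)⁻¹ = ev ψ (em x (s12 * pw ε ww * vv)) := by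
  rw [mul_one] at h
  rw [act W ha.2 (em_CA x (by decide) (by decide)) (em_sq x (by decide))
    (by rw [h, sign_em]; cases ε <;> decide) e, h, out_conj x (by cases ε <;> decide) ha.1]
  rfl

end

theorem s4e (kp : KpStmt) (e : P4eStmt) (f : P4fStmt) (k3 : K3Stmt.{u}) : S4eStmt.{u} := by
  intro G _ _ α _ _ ψ t B K hall g x φ φ' W T hc
  obtain ⟨-, ⟨ε, δ, σ, hσ, e1, e2, e3⟩, i, τ, hτ, -, e4, e5⟩ := e α x φ φ' _ T
  have yC := em_CA x (a := yy) (by decide) (by decide)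
  have y2 := em_sq x (a := yy) (by decide)
  rcases hc with hc | ⟨hc, s1, s2⟩
  · obtain rfl := e2 hc
    obtain ⟨rfl, e6⟩ := e3 rfl
    obtain ⟨e7, a, ha, h | ⟨n12, a₁, a₂, a₃, a₄, h4, h1, h2, h3⟩⟩ :=
      f α x φ φ' _ T hc (k3 ψ t B K hall g x φ φ' W T)
    · refine Or.inl ⟨_, n0 kp B W T ha, ⟨ε, gs W ha e1 e6⟩, ?_⟩
      rw [act W ha.2 yC y2 ?_ e7, h]
      rw [← H7.AA.sign_conj' a, h, sign_em]; decide
    · obtain ⟨n1, n2, n3, n4, n5, n6⟩ := nodup4.1 h4.1
      have sd := sign_d2 n1 n6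
      have sy : sign (em x yy) = 1 := by rw [sign_em]; decide
      refine Or.inr ⟨_, a₁, a₂, a₃, a₄, n0 kp B W T ha, h4, ⟨ε, gs W ha e1 e6⟩, ?_, ?_, n12⟩
      · rw [act W ha.2 yC y2 ?_ e7, h1, ev_mul sy sd]
        rw [← H7.AA.sign_conj' a, h1, Equiv.Perm.sign_mul, sy, sd, mul_one]
      · rw [act W ha.2 (mem_CA.2 ⟨?_, sd⟩) (H7.AA.d2_kpair h4.1).aa ?_ h3, h2]
        · refine Equiv.Perm.Disjoint.commute fun y => ?_
          by_cases k : ∃ i, x i = y
          · obtain ⟨i, rfl⟩ := k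
            obtain ⟨k1, k2, k3, k4⟩ := h4.2 i
            left
            rw [H7.AA.d2_apply, Equiv.swap_apply_of_ne_of_ne k3 k4,
              Equiv.swap_apply_of_ne_of_ne k1 k2]
          · push Not at k
            exact Or.inr (em_of_not x _ k)
        · rw [← H7.AA.sign_conj' a, h2, sd]
  · obtain rfl : σ = 1 := (sym_ten x hc hσ).resolve_right fun k => by
      rw [e1, k, ← map_mul, sign_em] at s1
      revert s1; cases ε <;> cases δ <;> decide
    obtain ⟨rfl, e6⟩ := e3 rfl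
    obtain rfl : τ = em x s0 := (sym_ten x hc hτ).resolve_left fun k => by
      rw [e4, k, mul_one, sign_em] at s2
      revert s2; cases i <;> decide
    obtain ⟨rfl, e7⟩ := e5 ⟨x 8, x 9, x.injective.ne (by decide), em_swap x 8 9⟩
    refine Or.inl ⟨_, n0 kp B W T (one_mem _), ⟨ε, gs W (one_mem _) e1 e6⟩, ?_⟩
    rw [act W (by simp) yC y2 s2 e7, e4, ← map_mul, one_mul, inv_one, mul_one]
    congr 2
    decide

end Cfsg.Agent.H75.AnS
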