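import Cfsg.Agent.H97.JmDefs

set_option autoImplicit false

namespace Cfsg.Agent.H97.JM

open Subgroup

universe u

namespace E11

theorem num (f : ℕ) (h1 : f ∣ 688128) (h2 : 2 ^ 19 ∣ 2640 * f) (h3 : f % 11 = 1) :
    f = 688128 := by
  have h4 : 2 ^ 15 ∣ f := by
    have h5 : 2 ^ 4 * 2 ^ 15 ∣ 2 ^ 4 * (165 * f) := by
      have e1 : (2 : ℕ) ^ 4 * 2 ^ 15 = 2 ^ 19 := by norm_num
      have e2 : 2 ^ 4 * (165 * f) = 2640 * f := by ring
      rw [e1, e2]; exact h2
    have h6 : 2 ^ 15 ∣ 165 * f := Nat.dvd_of_mul_dvd_mul_left (by norm_num) h5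
    exact (Nat.Coprime.dvd_of_dvd_mul_left (by norm_num) h6)
  obtain ⟨g, rfl⟩ := h4
  have h7 : g ∣ 21 := by
    have e : (688128 : ℕ) = 2 ^ 15 * 21 := by norm_num
    rw [e] at h1
    exact Nat.dvd_of_mul_dvd_mul_left (by norm_num) h1
  have h8 : g ≤ 21 := Nat.le_of_dvd (by norm_num) h7
  interval_cases g <;> first | rfl | (exfalso; revert h3; norm_num; done) | (exfalso; revert h7; norm_num; done)

end E11

theorem pE11 (hEA : EA.{u}) (hEB : EB.{u}) (hEC : EC.{u}) (hED : ED.{u}) (hEE : EE.{u}) :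
    E11.{u} := by
  intro G _ _ hC z x Q U hZ H hH hc
  have hz : z ∈ H := by
    apply hH
    rw [hZ.nU]
    have h0 : z ∈ centralizer ((zpowers x : Subgroup G) : Set G) := by
      rw [mem_centralizer_iff]
      intro y hy
      obtain ⟨k, rfl⟩ := mem_zpowers_iff.mp hy
      exact ((Commute.zpow_left (show Commute x z from hZ.xz) k)).eq
    exact centralizer_le_normalizer _ h0
  have h19 : 2 ^ 19 ∣ Nat.card H := by rw [hc]; norm_num
  obtain ⟨⟨f, hf, hf1⟩, hQ⟩ := hEB G hC z x Q U hZ H hH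
  have hd : Nat.card ↥(H ⊓ centralizer ({z} : Set G)) ∣ Nat.card H := card_dvd_of_le inf_le_left
  have hfd : f ∣ 688128 := by
    rw [hf, hc] at hd
    have e : (688128 * 319440 : ℕ) = 2640 * (121 * 688128) := by norm_num
    rw [e] at hd
    have h1 : f ∣ 121 * 688128 := Nat.dvd_of_mul_dvd_mul_left (by norm_num) hd
    have h2 : Nat.Coprime f 11 := by
      rw [Nat.Coprime, Nat.gcd_comm, Nat.gcd_rec, hf1]
      norm_num
    have h3 : Nat.Coprime f 121 := by
      have := Nat.Coprime.pow_right 2 h2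
      simpa using this
    exact h3.dvd_of_dvd_mul_left h1
  rcases hQ with hQ | ⟨h8, hv⟩
  · have h1 := hEC G z x Q U hZ H 19 hQ h19
    rw [hf] at h1
    have h2 := E11.num f hfd h1 hf1
    have h3 : H ≤ normalizer ((U : Subgroup G) : Set G) := by
      apply hED G hC z x Q U hZ H hH
      rw [hf, hc, h2]
    have h4 := card_dvd_of_le h3
    rw [hc, (hC.n11 U).2] at h4
    revert h4
    norm_num
  · obtain ⟨B, hB, hzB, hB2, hB6⟩ := hEA G hC z H hZ.z2 hz h19
    exact hEE G hC z x Q U hZ H B f hf hf1 hfd h8 hv hB hzB hB2 hB6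

end Cfsg.Agent.H97.JM
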