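import Cfsg.Agent.H45.OnDefs

set_option autoImplicit false

namespace Cfsg.Agent.H75.OnDc

open Cfsg.Agent.H45.On

universe u v

theorem ncard_le {G : Type u} {Ω : Type v} [Group G] [MulAction G Ω] [Finite Ω] (g : G)
    {A B : Set Ω} (h : ∀ x ∈ A, g • x ∈ B) : A.ncard ≤ B.ncard :=
  Set.ncard_le_ncard_of_injOn (fun x => g • x) h (MulAction.injective g).injOn

theorem dc : DcStmt.{u, v} := by
  intro G Ω _ _ _ _ S R hR z₀ w₀ w₁ w₂ h0 h1
  classical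
  haveI : Fintype Ω := Fintype.ofFinite Ω
  have ha : ∀ z w z' w' : Ω, z ≠ w → z' ≠ w' →
      {x | x ≠ z ∧ x ≠ w ∧ R z w x}.ncard ≤ {x | x ≠ z' ∧ x ≠ w' ∧ R z' w' x}.ncard := by
    intro z w z' w' h h'
    obtain ⟨g, rfl, rfl⟩ := S.tr2 z w z' w' h h'
    exact ncard_le g fun x hx => ⟨(MulAction.injective g).ne hx.1, (MulAction.injective g).ne hx.2.1,
      hR g _ _ _ hx.2.2⟩
  have hb : ∀ z w z' w' : Ω, z ≠ w → z' ≠ w' →
      {x | x ≠ z ∧ x ≠ w ∧ R x z w}.ncard ≤ {x | x ≠ z' ∧ x ≠ w' ∧ R x z' w'}.ncard := by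
    intro z w z' w' h h'
    obtain ⟨g, rfl, rfl⟩ := S.tr2 z w z' w' h h'
    exact ncard_le g fun x hx => ⟨(MulAction.injective g).ne hx.1, (MulAction.injective g).ne hx.2.1,
      hR g _ _ _ hx.2.2⟩
  have key := Finset.sum_card_bipartiteAbove_eq_sum_card_bipartiteBelow
    (s := Finset.univ.erase w₀) (t := Finset.univ.erase w₀) (fun z w' => w' ≠ z ∧ R z w₀ w')
  have e1 : ∀ x ∈ Finset.univ.erase w₀, (Finset.bipartiteAbove (fun z w' => w' ≠ z ∧ R z w₀ w')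
      (Finset.univ.erase w₀) x).card = {w' | w' ≠ z₀ ∧ w' ≠ w₀ ∧ R z₀ w₀ w'}.ncard := by
    intro x hx
    have hx' : x ≠ w₀ := Finset.ne_of_mem_erase hx
    rw [← le_antisymm (ha x w₀ z₀ w₀ hx' h0) (ha z₀ w₀ x w₀ h0 hx'), ← Set.ncard_coe_finset]
    congr 1
    ext y
    simp only [Finset.bipartiteAbove, Finset.coe_filter, Finset.mem_erase, Finset.mem_univ,
      and_true, Set.mem_setOf_eq]
    exact ⟨fun h => ⟨h.2.1, h.1, h.2.2⟩, fun h => ⟨h.2.1, h.1, h.2.2⟩⟩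
  have e2 : ∀ x ∈ Finset.univ.erase w₀, (Finset.bipartiteBelow (fun z w' => w' ≠ z ∧ R z w₀ w')
      (Finset.univ.erase w₀) x).card = {z | z ≠ w₁ ∧ z ≠ w₂ ∧ R z w₁ w₂}.ncard := by
    intro x hx
    have hx' : w₀ ≠ x := (Finset.ne_of_mem_erase hx).symm
    rw [← le_antisymm (hb w₀ x w₁ w₂ hx' h1) (hb w₁ w₂ w₀ x h1 hx'), ← Set.ncard_coe_finset]
    congr 1
    ext y
    simp only [Finset.bipartiteBelow, Finset.coe_filter, Finset.mem_erase, Finset.mem_univ,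
      and_true, Set.mem_setOf_eq]
    exact ⟨fun h => ⟨h.1, h.2.1.symm, h.2.2⟩, fun h => ⟨h.1, h.2.1.symm, h.2.2⟩⟩
  rw [Finset.sum_congr rfl e1, Finset.sum_congr rfl e2, Finset.sum_const, Finset.sum_const,
    smul_eq_mul, smul_eq_mul] at key
  exact Nat.eq_of_mul_eq_mul_left
    (Finset.card_pos.2 ⟨z₀, Finset.mem_erase.2 ⟨h0, Finset.mem_univ _⟩⟩) key

end Cfsg.Agent.H75.OnDc
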