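import Mathlib

set_option autoImplicit false

namespace Cfsg.Agent.H75

variable {X : Type*} [Group X]

theorem shintani_mem_fix (τ : MulAut X) (x : X) :
    x ∈ (MulEquiv.toMonoidHom τ).eqLocus (MonoidHom.id X) ↔ τ x = x := Iff.rfl

theorem shintani_pow_succ_apply (σ : MulAut X) (n : ℕ) (x : X) :
    (σ ^ (n + 1)) x = (σ ^ n) (σ x) := by
  rw [pow_succ]; rfl

theorem shintani_pow_succ_apply' (σ : MulAut X) (n : ℕ) (x : X) :
    (σ ^ (n + 1)) x = σ ((σ ^ n) x) := by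
  rw [pow_succ']; rfl

theorem shintani_comm_apply (σ : MulAut X) (n : ℕ) (x : X) :
    (σ ^ n) (σ x) = σ ((σ ^ n) x) := by
  rw [← shintani_pow_succ_apply, shintani_pow_succ_apply']

theorem shintani_pow_fix (σ : MulAut X) (n : ℕ) (x : X) (h : σ x = x) : (σ ^ n) x = x := by
  induction n with
  | zero => rfl
  | succ n ih => rw [shintani_pow_succ_apply', ih, h]

/-- The telescoping norm. -/
theorem shintani_norm (σ : MulAut X) (a : X) (d : ℕ) :
    ((List.range d).map (fun i => (σ ^ i) (a * (σ a)⁻¹))).prod = a * ((σ ^ d) a)⁻¹ := by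
  induction d with
  | zero => simp
  | succ n ih =>
    rw [List.range_succ, List.map_append, List.prod_append, ih]
    simp [shintani_pow_succ_apply, mul_assoc]

/-- The Shintani image is fixed by `σ`. -/
theorem shintani_image_fix (σ : MulAut X) (e : ℕ) (a : X)
    (hg : (σ ^ e) (a * (σ a)⁻¹) = a * (σ a)⁻¹) :
    σ (((σ ^ e) a)⁻¹ * a) = ((σ ^ e) a)⁻¹ * a := by
  rw [map_mul, map_inv, shintani_comm_apply] at hg
  rw [map_mul, map_inv]
  have : (σ ((σ ^ e) a))⁻¹ = ((σ ^ e) a)⁻¹ * (a * (σ a)⁻¹) := by rw [← hg]; group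
  rw [this]; group

/-- Converse: if the Shintani image is fixed by `σ` then `a σ(a)⁻¹` is fixed by `σ ^ e`. -/
theorem shintani_fix_of_image (σ : MulAut X) (e : ℕ) (a : X)
    (hx : σ (((σ ^ e) a)⁻¹ * a) = ((σ ^ e) a)⁻¹ * a) :
    (σ ^ e) (a * (σ a)⁻¹) = a * (σ a)⁻¹ := by
  rw [map_mul, map_inv] at hx
  rw [map_mul, map_inv, shintani_comm_apply]
  have : (σ ((σ ^ e) a))⁻¹ = ((σ ^ e) a)⁻¹ * a * (σ a)⁻¹ := by rw [← hx]; group
  rw [this]; group

end Cfsg.Agent.H75
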